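import Cfsg.Agent.H383.D2.Quot
import Cfsg.Agent.H50.D2.Stb

/-!
# S3691, F-D+2 (d): the end (helper383)

* `D2.alpha_end` : `q ≥ 8` even, `m` odd: the stabiliser of a nonsingular vector has no nontrivial normal 2-subgroup, if it contains
  an element of order `r_{m-1}`, is divisible by `q ^ (m - 1) - 1` and modulo each normal 2-subgroup has a large 2-part.
-/

set_option autoImplicit false
set_option linter.unusedSectionVars false

namespace Cfsg.Agent.H386.Rg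

open Module QuadraticMap
open Cfsg.Agent.LieClassical.OrthCore Cfsg.Agent.LieClassical.OrthTrans
open Cfsg.Agent.BpCl (Iso)
open Cfsg.Agent.H383.Rg Cfsg.Agent.H383.D2
open Cfsg.Agent.H934.ArfO (T_eq_zero T_sq exists_T_one)

local notation "Tr" => Cfsg.Agent.H934.ArfO.T

universe u v

variable {F : Type u} {V : Type v} [Field F] [Finite F] [AddCommGroup V] [Module F V] [FiniteDimensional F V]
  {Q : QuadraticForm F V} {p f m : ℕ} {K : Subgroup (V ≃ₗ[F] V)}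

/-- **the end of (d)** -/
theorem D2.alpha_end (hMain : H667.HerFin.Main.{v}) (h : D2 Q p f m K) (hp2 : p = 2) (hq : 8 ≤ p ^ f) (hm : Odd m)
    {v : V} (hv : Q v ≠ 0) {r : ℕ} (hr : r.Prime) (hord : orderOf (2 : ZMod r) = f * (m - 1)) {y : V ≃ₗ[F] V}
    (hy : y ∈ stb K v) (hyr : orderOf y = r) {N : Subgroup (V ≃ₗ[F] V)} (hN : N ≤ stb K v)
    (hNn : ∀ k ∈ stb K v, ∀ a ∈ N, k * a * k⁻¹ ∈ N) (hN2 : IsPGroup 2 N) (hN1 : N ≠ ⊥)
    (hcore : ∀ A : Subgroup (stb K v), A.Normal → IsPGroup 2 A → f * (m - 1) < 2 ^ (A.index).factorization 2)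
    (hdvd : 2 ^ (f * (m - 1)) - 1 ∣ Nat.card (stb K v)) : False := by
  subst hp2
  have hchar : CharP F 2 := h.charP
  have hv0 : v ≠ 0 := by
    rintro rfl
    exact hv (QuadraticMap.map_zero Q)
  have hm5 := h.hm
  have hf3 : 3 ≤ f := by
    by_contra hcon
    have h1 : f ≤ 2 := by omega
    have h2 := Nat.pow_le_pow_right (n := 2) (by norm_num) h1
    norm_num at h2 hq
    omega
  obtain ⟨n, hn⟩ : ∃ n, n = f * (m - 1) := ⟨_, rfl⟩
  rw [← hn] at hord hcore hdvd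
  have hn12 : 12 ≤ n := by
    rw [hn]
    have h1 : 3 * 4 ≤ f * (m - 1) := Nat.mul_le_mul hf3 (by omega)
    omega
  have hnpos : 0 < n := by omega
  have hfinV : Finite V := Module.finite_of_finite F
  have hfinGL : Finite (V ≃ₗ[F] V) := Finite.of_injective (fun g : V ≃ₗ[F] V => (g : V → V)) DFunLike.coe_injective
  have hr2 : r ≠ 2 := by
    rintro rfl
    have h1 : (2 : ZMod 2) = 0 := rfl
    rw [h1, orderOf_eq_zero_iff'.2 (by
      intro m hm h3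
      rw [zero_pow hm.ne'] at h3
      exact zero_ne_one h3)] at hord
    omega
  have hnd1 := f1_nd h.nd hv0
  have halt1 := f1_alt (Q := Q) v
  have hcV1 : Nat.card (V1 Q v) = 2 ^ (2 * n) := by
    rw [Module.natCard_eq_pow_finrank (K := F), finrank_V1 h.nd hv0 h.dim (by omega), h.hF, ← pow_mul, hn]
    congr 1
    ring
  have hfinV1 : Finite (V1 Q v) := Nat.finite_of_card_ne_zero (by rw [hcV1]; positivity)
  -- the group
  let ρ : stb K v →* (V1 Q v ≃ₗ[F] V1 Q v) := rho h.iso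
  have hρinj : Function.Injective ρ := rho_inj h hm hv
  obtain ⟨D0, hD0⟩ : ∃ D0 : Subgroup (V1 Q v ≃ₗ[F] V1 Q v), D0 = ρ.range := ⟨_, rfl⟩
  have hmemD : ∀ g, g ∈ D0 ↔ ∃ k, ρ k = g := fun g => by rw [hD0, MonoidHom.mem_range]
  have hDI : D0 ≤ Iso (F := F) fun x y => f1 Q v x y := by
    intro g hg
    obtain ⟨k, rfl⟩ := (hmemD g).1 hg
    exact rho_iso h.iso k
  have hodd : ∀ g ∈ D0, (orderOf g).Prime → orderOf g ≠ 2 → ∀ a, g a = a → a = 0 := by
    intro g hg hgo hg2 a ha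
    obtain ⟨k, rfl⟩ := (hmemD g).1 hg
    rw [orderOf_injective ρ hρinj] at hgo hg2
    exact rho_fpf h rfl hv k hgo hg2 ha
  have hy1o : orderOf (⟨y, hy⟩ : stb K v) = r := by rw [Subgroup.orderOf_mk, hyr]
  obtain ⟨y1, hy1⟩ : ∃ y1, y1 = ρ ⟨y, hy⟩ := ⟨_, rfl⟩
  have hy1r : orderOf y1 = r := by rw [hy1, orderOf_injective ρ hρinj, hy1o]
  have hy1D : y1 ∈ D0 := (hmemD y1).2 ⟨_, hy1.symm⟩
  have hy1p : y1 ^ r = 1 := by rw [← hy1r, pow_orderOf_eq_one]
  have hy11 : y1 ≠ 1 := by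
    rintro h1
    rw [h1, orderOf_one] at hy1r
    exact hr.one_lt.ne hy1r
  have hfpf : ∀ a, y1 a = a → a = 0 := hodd y1 hy1D (by rw [hy1r]; exact hr) (by rw [hy1r]; exact hr2)
  -- the normal subgroup
  obtain ⟨N1, hN1d⟩ : ∃ N1, N1 = (N.subgroupOf (stb K v)).map ρ := ⟨_, rfl⟩
  have hmemN : ∀ g, g ∈ N1 ↔ ∃ k : stb K v, k.1 ∈ N ∧ ρ k = g := fun g => by
    rw [hN1d, Subgroup.mem_map]
    rfl
  have hN12 : IsPGroup 2 N1 := by
    rw [hN1d]
    exact (hN2.comap_subtype (K := stb K v)).map ρ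
  have hN1D : N1 ≤ D0 := by
    intro g hg
    obtain ⟨k, -, hk⟩ := (hmemN g).1 hg
    exact (hmemD g).2 ⟨k, hk⟩
  have hN1n : ∀ x ∈ D0, ∀ g ∈ N1, x * g * x⁻¹ ∈ N1 := by
    intro x hx g hg
    obtain ⟨k, rfl⟩ := (hmemD x).1 hx
    obtain ⟨l, hl, rfl⟩ := (hmemN g).1 hg
    exact (hmemN _).2 ⟨k * l * k⁻¹, hNn k.1 k.2 l.1 hl, by rw [map_mul, map_mul, map_inv]⟩
  obtain ⟨a0, ha0N, ha01⟩ : ∃ a ∈ N, a ≠ 1 := by
    by_contra hcon
    push Not at hcon
    exact hN1 ((Subgroup.eq_bot_iff_forall _).2 hcon)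
  have hb0 : ρ ⟨a0, hN ha0N⟩ ≠ 1 := by
    intro h1
    rw [← map_one ρ] at h1
    exact ha01 (congrArg Subtype.val (hρinj h1))
  have hb0N : ρ ⟨a0, hN ha0N⟩ ∈ N1 := (hmemN _).2 ⟨_, ha0N, rfl⟩
  have hN11 : N1 ≠ ⊥ := by
    intro h1
    rw [h1, Subgroup.mem_bot] at hb0N
    exact hb0 hb0N
  obtain ⟨W, -, hcW, hti, hperp, hinv, -⟩ := H383.Rg.exists_W halt1 hnd1 hnpos hr hord hcV1 hDI hy1D hy1p hfpf hN12 hN11
    hN1D hN1n
  have htriv := triv_quot hnpos hr hord hcV1 hy1D hy1p hfpf hN12 hN1D hN1n hcW hinv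
  -- the form
  obtain ⟨w1, hw1⟩ := exists_w0 h.nd hv0
  obtain ⟨q1, hq1, -⟩ := exists_q1 hw1
  obtain ⟨q0, hq0, h0⟩ := exists_zero_form hnd1 hq1 hti
  obtain ⟨w0, hvw0, hw0⟩ := H383.D2.exists_w h.nd hv hq0
  have hT0 : Tr (Q v * Q w0) = 0 := tr_w0 h.nd h.dim h.plus hti hperp h0 hw0
  obtain ⟨s, hs⟩ := exists_sq (F := F) (Q v)⁻¹
  have hL : Ls (f1 Q v) D0 W q0 n := by
    refine ⟨hnpos, halt1, hnd1, hDI, hinv, hcW, hcV1, hti, hperp, hq0, h0, ?_⟩
    intro a hT b hb hfix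
    obtain ⟨k, rfl⟩ := (hmemD b).1 hb
    obtain ⟨t, rfl⟩ := p1_surj v a
    have hvw : polar Q v (w0 + s • t.1) = 1 := by
      rw [polar_add_right, polar_smul_right, hvw0, pol_v', smul_zero, add_zero]
    have han : Aniso Q v (w0 + s • t.1) := aniso_of_tr hvw (by rw [tr_w hw0 hv hs t, hT0, zero_add, hT])
    have h1 := fix_form h hm hv hvw han k.2.1 k.2.2 (by
      intro x hx
      have h2 := hfix (p1 Q v ⟨x, hx⟩)
      have h3 : ρ k (p1 Q v ⟨x, hx⟩) = p1 Q v (res h.iso k ⟨x, hx⟩) := rfl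
      rw [h3, sh_w hw0 hv hs, sh_w hw0 hv hs, res_coe, h.iso k.1 k.2.1] at h2
      have h4 := mul_left_cancel₀ hv (add_left_cancel h2)
      have h5 : (polar Q (w0 + s • t.1) (k.1 x) + polar Q (w0 + s • t.1) x) ^ 2 = 0 := by
        rw [sq_add, h4, add_self']
      exact CharTwo.add_eq_zero.1 (pow_eq_zero_iff (two_ne_zero) |>.1 h5))
    have h2 : k = 1 := Subtype.ext h1
    rw [h2, map_one]
  have hcD : Nat.card D0 = Nat.card (stb K v) := by
    rw [hD0]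
    exact (Nat.card_congr (MonoidHom.ofInjective hρinj).toEquiv).symm
  refine hL.false hMain hn12 hr hord hy1D hy1p hy11 hodd ⟨_, hN1D hb0N, hb0, htriv _ hb0N⟩ ?_ ?_ ?_
  · rw [hcD, hn]
    exact H50.D2.card_stb_dvd h hv
  · rw [hcD]
    exact hdvd
  · subst hD0
    intro A hAn hA2
    have h1 := hcore (A.comap ρ.rangeRestrict) (hAn.comap _) (hA2.comap_of_injective _ (by
      intro a b hab
      exact hρinj (congrArg Subtype.val hab)))
    rw [Subgroup.index_comap_of_surjective A ρ.rangeRestrict_surjective] at h1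
    exact h1

end Cfsg.Agent.H386.Rg
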