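import Cfsg.Agent.H383.Rg.Ts
import Cfsg.Agent.H386.Rg.Alpha1

/-!
# S3691, F-D+2 (d): the final step (alpha) for a linear group (helper383)

* `Ls f D0 W q0 n` : a group `D0` of isometries of the alternating form `f`, preserving the maximal totally isotropic `W`, and free on
  the forms `sh f q0 v`, the trace of `q0 v` one;
* `Ls.false` : impossible.
-/

set_option autoImplicit false
set_option linter.unusedSectionVars false

namespace Cfsg.Agent.H383.D2

open Module QuadraticMap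
open Cfsg.Agent.LieClassical.OrthCore Cfsg.Agent.LieClassical.OrthTrans
open Cfsg.Agent.BpCl (Iso)
open Cfsg.Agent.H383.Rg
open Cfsg.Agent.H934.ArfO (T_eq_zero T_sq exists_T_one)

local notation "Tr" => Cfsg.Agent.H934.ArfO.T

universe v

variable {F : Type*} {V : Type v} [Field F] [Finite F] [CharP F 2] [AddCommGroup V] [Module F V]
  {f : LinearMap.BilinForm F V}

/-- the action on the forms -/
def fa (b : V ≃ₗ[F] V) (q : V → F) : V → F := fun x => q (b⁻¹ x)

theorem fa_apply (b : V ≃ₗ[F] V) (q : V → F) (x : V) : fa b q (b x) = q x := by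
  change q (b.symm (b x)) = q x
  rw [b.symm_apply_apply]

theorem fa_mul (a b : V ≃ₗ[F] V) (q : V → F) : fa (a * b) q = fa a (fa b q) := rfl

theorem fa_one (q : V → F) : fa (1 : V ≃ₗ[F] V) q = q := rfl

theorem fa_isQ {b : V ≃ₗ[F] V} (hb : b ∈ Iso (F := F) fun x y => f x y) {q : V → F} (hq : IsQ f q) : IsQ f (fa b q) := by
  refine ⟨fun x y => ?_, fun a x => ?_⟩
  · obtain ⟨x, rfl⟩ := b.surjective x
    obtain ⟨y, rfl⟩ := b.surjective y
    rw [← map_add, fa_apply, fa_apply, fa_apply, hq.add]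
    congr 1
    exact (hb x y).symm
  · obtain ⟨x, rfl⟩ := b.surjective x
    rw [← map_smul, fa_apply, fa_apply, hq.smul]

theorem fa_sh {b : V ≃ₗ[F] V} (hb : b ∈ Iso (F := F) fun x y => f x y) (q : V → F) (w : V) :
    fa b (sh f q w) = sh f (fa b q) (b w) := by
  funext x
  obtain ⟨x, rfl⟩ := b.surjective x
  rw [fa_apply, sh_apply, sh_apply, fa_apply]
  congr 2
  exact (hb w x).symm

/-- the situation -/
structure Ls (f : LinearMap.BilinForm F V) (D0 : Subgroup (V ≃ₗ[F] V)) (W : Submodule F V) (q0 : V → F) (n : ℕ) : Prop where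
  npos : 0 < n
  alt : ∀ v, f v v = 0
  nd : ∀ u, (∀ v, f u v = 0) → u = 0
  iso : D0 ≤ Iso (F := F) fun x y => f x y
  inv : ∀ b ∈ D0, ∀ w ∈ W, b w ∈ W
  cW : Nat.card W = 2 ^ n
  cV : Nat.card V = 2 ^ (2 * n)
  ti : ∀ u ∈ W, ∀ v ∈ W, f u v = 0
  perp : ∀ u, (∀ w ∈ W, f u w = 0) → u ∈ W
  hq : IsQ f q0
  zero : ∀ w ∈ W, q0 w = 0
  free : ∀ v, Tr (q0 v) = 1 → ∀ b ∈ D0, (∀ x, sh f q0 v (b x) = sh f q0 v x) → b = 1

namespace Ls

variable {D0 : Subgroup (V ≃ₗ[F] V)} {W : Submodule F V} {q0 : V → F} {n : ℕ} (C : Ls f D0 W q0 n)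

include C

theorem finV : Finite V := Nat.finite_of_card_ne_zero (by rw [C.cV]; positivity)

theorem q_add {v w : V} (hw : w ∈ W) : Tr (q0 (v + w)) = Tr (q0 v) + Tr (f v w) := by
  rw [C.hq.add, C.zero w hw, add_zero, map_add]

theorem exists_over {v : V} (hv : v ∉ W) : ∃ w ∈ W, Tr (q0 (v + w)) = 1 := by
  by_cases h : Tr (q0 v) = 1
  · exact ⟨0, W.zero_mem, by rwa [add_zero]⟩
  · obtain ⟨w, hw, h1⟩ := exists_w' C.perp hv
    refine ⟨w, hw, ?_⟩
    rw [C.q_add hw, h1]
    have : ∀ x : ZMod 2, ¬ x = 1 → x + 1 = 1 := by decide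
    exact this _ h

theorem exists_not_mem : ∃ v : V, v ∉ W := by
  by_contra hcon
  push Not at hcon
  have h1 : W = ⊤ := by rw [Submodule.eq_top_iff']; exact hcon
  have h2 := C.cW
  rw [h1] at h2
  have h3 : Nat.card (⊤ : Submodule F V) = Nat.card V := Nat.card_congr Submodule.topEquiv.toEquiv
  rw [h3, C.cV] at h2
  have h4 := C.npos
  have h5 : 2 ^ n < 2 ^ (2 * n) := Nat.pow_lt_pow_right (by norm_num) (by omega)
  omega

/-- the cocycle -/
theorem exists_d [FiniteDimensional F V] (b : V ≃ₗ[F] V) (hb : b ∈ D0) : ∃ d ∈ W, fa b q0 = sh f q0 d := by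
  obtain ⟨d, hd⟩ := exists_sh C.nd C.hq (fa_isQ (C.iso hb) C.hq)
  refine ⟨d, C.perp d fun w hw => ?_, hd⟩
  have h1 := congrFun hd w
  rw [sh_apply, C.zero w hw, zero_add, fa, C.zero _ (C.inv b⁻¹ (D0.inv_mem hb) w hw)] at h1
  exact pow_eq_zero_iff (two_ne_zero) |>.1 h1.symm

/-- the elements of `D0` trivial on `V / W` are trivial on `W` -/
theorem triv {a : V ≃ₗ[F] V} (ha : a ∈ D0) (h : ∀ v, a v - v ∈ W) {w : V} (hw : w ∈ W) : a w = w := by
  rw [← sub_eq_zero]
  apply C.nd
  intro v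
  have h1 : f (a w) (a v) = f w v := C.iso ha w v
  have h2 : a v = v + (a v - v) := by abel
  rw [h2, map_add, C.ti _ (C.inv a ha w hw) _ (h v), add_zero] at h1
  rw [map_sub, LinearMap.sub_apply, h1, sub_self]

theorem sq_one {a : V ≃ₗ[F] V} (ha : a ∈ D0) (h : ∀ v, a v - v ∈ W) : a * a = 1 := by
  apply LinearEquiv.ext
  intro v
  change a (a v) = v
  have h2 : a v = v + (a v - v) := by abel
  rw [h2, map_add, C.triv ha h (h v)]
  nth_rw 1 [h2]
  rw [add_assoc, vadd_self F, add_zero]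

theorem false_aux [FiniteDimensional F V] (hMain : H667.HerFin.Main.{v}) (hbig : 12 ≤ n) {r : ℕ}
    (hr : r.Prime) (hrn : orderOf (2 : ZMod r) = n) {y : V ≃ₗ[F] V} (hyD : y ∈ D0) (hyr : y ^ r = 1) (hy1 : y ≠ 1)
    (hodd : ∀ g ∈ D0, (orderOf g).Prime → orderOf g ≠ 2 → ∀ v, g v = v → v = 0)
    (hN : ∃ a ∈ D0, a ≠ 1 ∧ ∀ v, a v - v ∈ W) (hcard : Nat.card D0 ∣ 2 ^ n * (2 ^ n - 1)) (hdvd : 2 ^ n - 1 ∣ Nat.card D0)
    (hcore : ∀ A : Subgroup D0, A.Normal → IsPGroup 2 A → n < 2 ^ (A.index).factorization 2)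
    {U : Type v} [AddCommGroup U] [Module (ZMod 2) U] [Finite U] (pr : V →+ U) (hpr : Function.Surjective pr)
    (hprW : ∀ v, pr v = 0 ↔ v ∈ W) (ρ : D0 → U →+ U) (hρ : ∀ b v, ρ b (pr v) = pr (b.1 v)) : False := by
  classical
  have hnpos := C.npos
  have hfinV := C.finV
  have hfinGL : Finite (V ≃ₗ[F] V) := Finite.of_injective (fun g : V ≃ₗ[F] V => (g : V → V)) DFunLike.coe_injective
  have hr2 : r ≠ 2 := by
    rintro rfl
    have h1 : (2 : ZMod 2) = 0 := rfl
    rw [h1, orderOf_eq_zero_iff'.2 (by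
      intro m hm h3
      rw [zero_pow hm.ne'] at h3
      exact zero_ne_one h3)] at hrn
    omega
  have hyo : orderOf y = r := by
    have := Fact.mk hr
    exact orderOf_eq_prime hyr hy1
  have hfpf : ∀ v, y v = v → v = 0 := hodd y hyD (by rw [hyo]; exact hr) (by rw [hyo]; exact hr2)
  have h1ρ : ∀ u, ρ 1 u = u := by
    intro u
    obtain ⟨v, rfl⟩ := hpr u
    rw [hρ]
    rfl
  have hmρ : ∀ a b u, ρ (a * b) u = ρ a (ρ b u) := by
    intro a b u
    obtain ⟨v, rfl⟩ := hpr u
    rw [hρ, hρ, hρ]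
    rfl
  let τ : D0 →* (U ≃ₗ[ZMod 2] U) := actHom ρ h1ρ hmρ
  have hτ : ∀ (b : D0) (v : V), τ b (pr v) = pr (b.1 v) := hρ
  let actI : DistribMulAction D0 V :=
    { smul := fun x v => x.1 v
      one_smul := fun v => rfl
      mul_smul := fun _ _ v => rfl
      smul_zero := fun x => map_zero x.1
      smul_add := fun x u v => map_add x.1 u v }
  have hkerW : ∀ v, v ∈ pr.ker ↔ v ∈ W := fun v => by rw [AddMonoidHom.mem_ker, hprW]
  have hsubW : ∀ u v, pr u = pr v ↔ u - v ∈ W := fun u v => by rw [← hprW, map_sub, sub_eq_zero]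
  have hker : ∀ b : D0, b ∈ τ.ker ↔ ∀ v, b.1 v - v ∈ W := by
    intro b
    rw [MonoidHom.mem_ker]
    constructor
    · intro h v
      rw [← hsubW, ← hτ, h]
      rfl
    · intro h
      apply LinearEquiv.ext
      intro u
      obtain ⟨v, rfl⟩ := hpr u
      rw [hτ, (hsubW _ _).2 (h v)]
      rfl
  have hcU : Nat.card U = 2 ^ n := by
    have h1 := pr.ker.card_mul_index
    rw [AddSubgroup.index_ker, C.cV] at h1
    have h2 : Nat.card pr.range = Nat.card U := by
      rw [AddMonoidHom.range_eq_top.2 hpr, AddSubgroup.card_top]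
    have h3 : Nat.card pr.ker = Nat.card W := Nat.card_congr (Equiv.subtypeEquivRight hkerW)
    rw [h2, h3, C.cW, two_mul, pow_add] at h1
    exact Nat.eq_of_mul_eq_mul_left (by positivity) h1
  -- the cocycle
  choose d hdW hd using fun b : D0 => C.exists_d b.1 b.2
  have hdm : ∀ a b : D0, d (a * b) = d a + a.1 (d b) := by
    intro a b
    apply sh_inj C.nd (q := q0)
    rw [← hd, Subgroup.coe_mul, fa_mul, hd b, fa_sh (C.iso a.2), hd a, sh_sh]
  have hact : ∀ (b : D0) (v : V), fa b.1 (sh f q0 v) = sh f q0 (d b + b.1 v) := by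
    intro b v
    rw [fa_sh (C.iso b.2), hd b, sh_sh]
  have htyp : ∀ (b : D0) (v : V), Tr (q0 (d b + b.1 v)) = Tr (q0 v) := by
    intro b v
    have h1 := congrFun (hd b) (b.1 v)
    rw [fa_apply, sh_apply] at h1
    rw [h1, C.hq.add, C.zero _ (hdW b), zero_add, map_add, map_add, T_sq]
  have hover : ∀ u : U, u ≠ 0 → ∃ v, pr v = u ∧ Tr (q0 v) = 1 := by
    intro u hu
    obtain ⟨v, rfl⟩ := hpr u
    have hv : v ∉ W := fun h => hu ((hprW v).2 h)
    obtain ⟨w, hw, h⟩ := C.exists_over hv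
    exact ⟨v + w, by rw [map_add, (hprW w).2 hw, add_zero], h⟩
  have hfree : ∀ v, Tr (q0 v) = 1 → ∀ b : D0, d b + b.1 v = v → b = 1 := by
    intro v hv b hb
    have h1 := hact b v
    rw [hb] at h1
    apply Subtype.ext
    refine C.free v hv b.1 b.2 fun x => ?_
    have h2 := congrFun h1 (b.1 x)
    rw [fa_apply] at h2
    exact h2.symm
  have hAp : IsPGroup 2 τ.ker := by
    intro a
    refine ⟨1, ?_⟩
    apply Subtype.ext
    apply Subtype.ext
    rw [pow_one, pow_two]
    exact C.sq_one a.1.2 ((hker a.1).1 a.2)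
  have hAle : Nat.card τ.ker ≤ 2 ^ (n - 1) := by
    obtain ⟨v, hv⟩ := C.exists_not_mem
    obtain ⟨w0, hw0, h0⟩ := C.exists_over hv
    have h2 : Nat.card {w : W // Tr (q0 (v + w)) = 1} = 2 ^ (n - 1) := by
      have h3 := card_half' C.perp C.hq C.zero C.cW hv
      have h4 : 2 ^ n = 2 * 2 ^ (n - 1) := by
        rw [← pow_succ']
        congr 1
        omega
      omega
    rw [← h2]
    have hmem : ∀ a : τ.ker, d a.1 + (a.1.1 (v + w0) - (v + w0)) + w0 ∈ W := fun a =>
      W.add_mem (W.add_mem (hdW _) ((hker a.1).1 a.2 _)) hw0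
    have heq : ∀ a : τ.ker, v + (d a.1 + (a.1.1 (v + w0) - (v + w0)) + w0) = d a.1 + a.1.1 (v + w0) := fun a => by abel
    refine Nat.card_le_card_of_injective (fun a : τ.ker => (⟨⟨_, hmem a⟩, by
      rw [heq, htyp, h0]⟩ : {w : W // Tr (q0 (v + w)) = 1})) ?_
    intro a b hab
    have h3 : d a.1 + (a.1.1 (v + w0) - (v + w0)) + w0 = d b.1 + (b.1.1 (v + w0) - (v + w0)) + w0 :=
      congrArg (fun z => ((z.1 : W) : V)) hab
    have h4 : d a.1 + a.1.1 (v + w0) = d b.1 + b.1.1 (v + w0) := by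
      rw [← heq, ← heq, h3]
    have h5 : d (b.1⁻¹ * a.1) + (b.1⁻¹ * a.1 : D0).1 (v + w0) = v + w0 := by
      have h6 : ∀ z : D0, d z + z.1 (v + w0) = d z + z.1 (v + w0) := fun _ => rfl
      have h7 := hdm b.1 (b.1⁻¹ * a.1)
      rw [mul_inv_cancel_left] at h7
      rw [h7] at h4
      have h8 : a.1.1 (v + w0) = b.1.1 ((b.1⁻¹ * a.1 : D0).1 (v + w0)) := by
        change _ = (b.1 * (b.1⁻¹ * a.1) : D0).1 (v + w0)
        rw [mul_inv_cancel_left]
      rw [h8, add_assoc, ← map_add] at h4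
      exact b.1.1.injective (add_left_cancel h4)
    have h6 := hfree _ h0 _ h5
    apply Subtype.ext
    exact (inv_mul_eq_one.1 h6).symm
  have h2n : 2 ^ (n - 1) < 2 ^ n := Nat.pow_lt_pow_right (by norm_num) (by omega)
  have hAlt : Nat.card τ.ker < 2 ^ n := lt_of_le_of_lt hAle h2n
  have hyr' : (⟨y, hyD⟩ : D0) ^ r = 1 := Subtype.ext hyr
  have hAfix : ∀ a ∈ τ.ker, a ≠ 1 → ∀ v : V, a • v = v → v ∈ pr.ker := by
    intro a ha ha1 v hv
    have hc := cent_of_small (MonoidHom.normal_ker τ) hAp hnpos hAlt hr hrn hyr' ha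
    let X : AddSubgroup V :=
      { carrier := {v | a.1 v = v}
        add_mem' := fun {u v} hu hv => by
          change a.1 (u + v) = u + v
          rw [map_add, show a.1 u = u from hu, show a.1 v = v from hv]
        zero_mem' := map_zero a.1
        neg_mem' := fun {u} hu => by
          change a.1 (-u) = -u
          rw [map_neg, show a.1 u = u from hu] }
    have hXy : ∀ v ∈ X, y v ∈ X := by
      intro v hv
      change a.1 (y v) = y v
      have h1 : a.1 v = v := hv
      have h2 : y (a.1 v) = a.1 (y v) := congrArg (fun z : D0 => z.1 v) hc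
      rw [← h2, h1]
    have hWX : W.toAddSubgroup ≤ X := fun w hw => C.triv a.2 ((hker a).1 ha) hw
    have h1n : 1 < 2 ^ n := Nat.one_lt_two_pow (by omega)
    rcases card_inv_V hnpos hr hrn C.cV hyr hfpf X hXy with h | h | h
    · exfalso
      have h1 : Nat.card W.toAddSubgroup ≤ Nat.card X :=
        Nat.card_le_card_of_injective _ (AddSubgroup.inclusion_injective hWX)
      rw [h] at h1
      have h2 : Nat.card W.toAddSubgroup = 2 ^ n := C.cW
      omega
    · have h1 : W.toAddSubgroup = X := AddSubgroup.eq_of_le_of_card_ge hWX (by rw [h]; exact C.cW.ge)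
      rw [hkerW]
      have h2 : v ∈ X := hv
      rw [← h1] at h2
      exact h2
    · exfalso
      apply ha1
      apply Subtype.ext
      apply LinearEquiv.ext
      intro v
      have h1 : v ∈ X := by rw [h]; exact AddSubgroup.mem_top _
      exact h1
  have hAne : τ.ker ≠ ⊥ := by
    obtain ⟨a, haD, ha1, ha⟩ := hN
    intro h
    have h1 : (⟨a, haD⟩ : D0) ∈ τ.ker := (hker _).2 ha
    rw [h, Subgroup.mem_bot] at h1
    exact ha1 (congrArg (fun z : D0 => z.1) h1)
  -- transitivity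
  have htrans : ∀ u w : U, u ≠ 0 → w ≠ 0 → ∃ b : D0, τ b u = w := by
    intro u w hu hw
    let actU : MulAction D0 U :=
      { smul := fun b u => τ b u
        one_smul := fun u => by
          change τ 1 u = u
          rw [map_one]
          rfl
        mul_smul := fun a b u => by
          change τ (a * b) u = τ a (τ b u)
          rw [map_mul]
          rfl }
    -- the stabiliser is a 2-group
    have hS : IsPGroup 2 (MulAction.stabilizer D0 u) := by
      have : Fact (Nat.Prime 2) := ⟨Nat.prime_two⟩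
      rw [IsPGroup.iff_card]
      refine ⟨_, Nat.eq_prime_pow_of_unique_prime_dvd Nat.card_pos.ne' fun {s} hs hsd => ?_⟩
      by_contra hs2
      have := Fact.mk hs
      obtain ⟨g, hg⟩ := exists_prime_orderOf_dvd_card' s hsd
      have hgu : τ g.1 u = u := g.2
      have hgo : orderOf g.1.1 = s := by rw [Subgroup.orderOf_coe, Subgroup.orderOf_coe, hg]
      obtain ⟨v0, rfl⟩ := hpr u
      -- the coset
      let Xc : Type _ := {x : V // pr x = pr v0}
      have hXc : Nat.card Xc = 2 ^ n := by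
        rw [← C.cW]
        refine Nat.card_congr ⟨fun x => ⟨x.1 - v0, (hsubW _ _).1 x.2⟩, fun w => ⟨w.1 + v0, (hsubW _ _).2 (by
          rw [add_sub_cancel_right]; exact w.2)⟩, fun x => Subtype.ext (by simp), fun w => Subtype.ext (by simp)⟩
      have hgX : ∀ x, pr x = pr v0 → pr (g.1.1 x) = pr v0 := by
        intro x hx
        rw [← hτ, hx, hgu]
      have := Fintype.ofFinite Xc
      have h1 : Fintype.card Xc ≡ Fintype.card (Function.fixedPoints (fun x : Xc => (⟨g.1.1 x.1, hgX x.1 x.2⟩ : Xc))) [MOD s] := by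
        have h2 := Equiv.Perm.card_fixedPoints_modEq
          (f := (show Function.End Xc from fun x : Xc => (⟨g.1.1 x.1, hgX x.1 x.2⟩ : Xc))) (p := s) (n := 1) (by
          rw [pow_one]
          have h4 : ∀ (m : ℕ) (x : Xc), ((show Function.End Xc from fun x : Xc => (⟨g.1.1 x.1, hgX x.1 x.2⟩ : Xc)) ^ m) x =
              (⟨(g.1.1 ^ m) x.1, by
                induction m with
                | zero => exact x.2
                | succ m ih =>
                  rw [pow_succ']
                  exact hgX _ ih⟩ : Xc) := by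
            intro m
            induction m with
            | zero => intro x; rfl
            | succ m ih =>
              intro x
              rw [pow_succ]
              have h5 := ih ((show Function.End Xc from fun x : Xc => (⟨g.1.1 x.1, hgX x.1 x.2⟩ : Xc)) x)
              refine h5.trans ?_
              apply Subtype.ext
              change (g.1.1 ^ m) (g.1.1 x.1) = (g.1.1 ^ (m + 1)) x.1
              rw [pow_succ]
              rfl
          funext x
          rw [h4]
          apply Subtype.ext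
          change (g.1.1 ^ s) x.1 = x.1
          rw [← hgo, pow_orderOf_eq_one]
          rfl)
        convert h2
      have h2 : IsEmpty (Function.fixedPoints (fun x : Xc => (⟨g.1.1 x.1, hgX x.1 x.2⟩ : Xc))) := by
        refine ⟨fun x => ?_⟩
        have h3 : g.1.1 x.1.1 = x.1.1 := congrArg Subtype.val x.2
        have h4 := hodd g.1.1 g.1.2 (by rw [hgo]; exact hs) (by rw [hgo]; exact hs2) _ h3
        apply hu
        rw [← x.1.2, h4, map_zero]
      have h3 := Fintype.card_eq_zero_iff.2 h2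
      rw [h3, ← Nat.card_eq_fintype_card, hXc, Nat.modEq_zero_iff_dvd] at h1
      exact hs2 ((Nat.prime_dvd_prime_iff_eq hs Nat.prime_two).1 (hs.dvd_of_dvd_pow h1))
    obtain ⟨k, hk⟩ := IsPGroup.iff_card.1 hS
    have h1 := Subgroup.card_mul_index (MulAction.stabilizer D0 u)
    rw [MulAction.index_stabilizer] at h1
    have h2 : 0 < (MulAction.orbit D0 u).ncard := by
      rw [Set.ncard_pos (Set.toFinite _)]
      exact ⟨u, MulAction.mem_orbit_self u⟩
    have hcop : Nat.Coprime (2 ^ n - 1) (Nat.card (MulAction.stabilizer D0 u)) := by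
      rw [hk]
      apply Nat.Coprime.pow_right
      rw [Nat.coprime_two_right]
      obtain ⟨j, rfl⟩ : ∃ j, n = j + 1 := ⟨n - 1, by omega⟩
      have h3 : 0 < 2 ^ j := by positivity
      refine ⟨2 ^ j - 1, ?_⟩
      rw [pow_succ]
      omega
    have h3 : 2 ^ n - 1 ∣ (MulAction.orbit D0 u).ncard := by
      rw [← h1] at hdvd
      exact hcop.dvd_of_dvd_mul_left hdvd
    have h4 := Nat.le_of_dvd h2 h3
    have h5 : MulAction.orbit D0 u ⊆ {0}ᶜ := by
      rintro _ ⟨b, rfl⟩ h
      have h6 : τ b u = 0 := h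
      exact hu ((τ b).map_eq_zero_iff.1 h6)
    have h6 : ({0}ᶜ : Set U).ncard = 2 ^ n - 1 := by
      rw [Set.ncard_compl, hcU, Set.ncard_singleton]
    have h7 : MulAction.orbit D0 u = {0}ᶜ := by
      apply Set.eq_of_subset_of_ncard_le h5 _ (Set.toFinite _)
      rw [h6]
      exact h4
    have h8 : w ∈ MulAction.orbit D0 u := by
      rw [h7]
      exact hw
    obtain ⟨b, hb⟩ := h8
    exact ⟨b, hb⟩
  refine H386.Rg.alpha1 (p := 2) (n := n) hMain (V := V) (fun v => by rw [two_smul, vadd_self F]) (U := U) hcU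
    (Nat.pow_le_pow_right (by norm_num) hbig) (D := D0) pr hpr τ (fun x v => (hτ x v).symm) ?_ hAp ?_ hAfix hAne hAlt
    τ.range ?_ ?_ (Z := F) (AddMonoidHom.id F) (bet f) ?_ ?_ ?_ 1 n one_pos ?_ ?_ ?_ hr hrn ?_ d ?_ ?_ ?_
  · rw [hcU, Nat.card_congr (Equiv.subtypeEquivRight hkerW)]
    exact C.cW
  · intro a ha w hw
    exact C.triv a.2 ((hker a).1 ha) ((hkerW w).1 hw)
  · -- transitive
    intro u u' hu hu'
    obtain ⟨b, hb⟩ := htrans u u' hu hu'
    exact ⟨τ b, ⟨_, rfl⟩, hb⟩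
  · refine ⟨0, ?_⟩
    rintro _ ⟨g, -, rfl⟩
    exact g.2
  · intro x u v
    exact C.iso x.2 u v
  · intro u hu
    rw [hkerW]
    exact C.perp u fun w hw => hu w ((hkerW w).2 hw)
  · intro a ha u v
    change f u (a.1 v - v) = f v (a.1 u - u)
    rw [map_sub, map_sub, symm_of_alt C.alt u v]
    congr 1
    have h1 : f (a.1 u) (a.1 (a.1 v)) = f u (a.1 v) := C.iso a.2 u (a.1 v)
    have h2 : a.1 (a.1 v) = v := congrArg (fun z : V ≃ₗ[F] V => z v) (C.sq_one a.2 ((hker a).1 ha))
    rw [h2] at h1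
    rw [← h1, symm_of_alt C.alt]
  · rw [one_mul]
    exact hcard
  · have h1 : (1 + 1) ^ 3 < 2 ^ 12 := by norm_num
    exact lt_of_lt_of_le h1 (Nat.pow_le_pow_right (by norm_num) hbig)
  · -- the 2-part
    have h1 := hcore τ.ker (MonoidHom.normal_ker τ) hAp
    rw [Subgroup.index_ker] at h1
    exact h1
  · rw [← hyo, ← Subgroup.orderOf_mk y hyD]
    exact orderOf_dvd_natCard _
  · intro x
    rw [hkerW]
    exact hdW _
  · intro a b
    exact hdm a b
  · intro u hu
    obtain ⟨v, hv, h⟩ := hover u hu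
    refine ⟨v, hv, fun x hx => hfree v h x ?_⟩
    rw [add_comm]
    exact hx

/-- **the situation is impossible** -/
theorem false [FiniteDimensional F V] (hMain : H667.HerFin.Main.{v}) (hbig : 12 ≤ n) {r : ℕ}
    (hr : r.Prime) (hrn : orderOf (2 : ZMod r) = n) {y : V ≃ₗ[F] V} (hyD : y ∈ D0) (hyr : y ^ r = 1) (hy1 : y ≠ 1)
    (hodd : ∀ g ∈ D0, (orderOf g).Prime → orderOf g ≠ 2 → ∀ v, g v = v → v = 0)
    (hN : ∃ a ∈ D0, a ≠ 1 ∧ ∀ v, a v - v ∈ W) (hcard : Nat.card D0 ∣ 2 ^ n * (2 ^ n - 1)) (hdvd : 2 ^ n - 1 ∣ Nat.card D0)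
    (hcore : ∀ A : Subgroup D0, A.Normal → IsPGroup 2 A → n < 2 ^ (A.index).factorization 2) : False := by
  have hfinV := C.finV
  have hfinU : Finite (V ⧸ W.toAddSubgroup) := Quotient.finite _
  refine @Ls.false_aux F V _ _ _ _ _ f D0 W q0 n C _ hMain hbig r hr hrn y hyD hyr hy1 hodd hN hcard hdvd hcore
    (V ⧸ W.toAddSubgroup) _ (AddCommGroup.zmodModule (n := 2) ?_) hfinU (QuotientAddGroup.mk' W.toAddSubgroup)
    (QuotientAddGroup.mk'_surjective _) ?_
    (fun b => QuotientAddGroup.map W.toAddSubgroup W.toAddSubgroup (b.1 : V →ₗ[F] V).toAddMonoidHom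
      (fun w hw => C.inv b.1 b.2 w hw)) ?_
  · intro u
    obtain ⟨v, rfl⟩ := QuotientAddGroup.mk'_surjective _ u
    rw [← map_nsmul, two_smul, vadd_self F, map_zero]
  · intro v
    exact QuotientAddGroup.eq_zero_iff v
  · intro b v
    rfl

end Ls

end Cfsg.Agent.H383.D2
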