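import Cfsg.Agent.H383.D2.Free
import Cfsg.Agent.H383.D2.Lin
import Cfsg.Agent.H72.D2.Vs

/-!
# S3691, F-D+2 (d): the symplectic space `v^⊥ / v`, characteristic 2 (helper383)

* `Pv`, `V1`, `f1`, `rho` : the perpendicular space, the quotient, its form, the action of the stabiliser;
* `exists_w` : the forms polarising to `f1`;
* `tr_w0` : the form vanishing on a maximal subspace is attached to a hyperbolic plane.
-/

set_option autoImplicit false
set_option linter.unusedSectionVars false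

namespace Cfsg.Agent.H383.D2

open Module QuadraticMap
open Cfsg.Agent.LieClassical.OrthCore Cfsg.Agent.LieClassical.OrthTrans
open Cfsg.Agent.BpCl (Iso)
open Cfsg.Agent.H383.Rg Cfsg.Agent.H386.Rg
open Cfsg.Agent.H934.ArfO (T_eq_zero T_sq exists_T_one)

local notation "Tr" => Cfsg.Agent.H934.ArfO.T

universe u v

variable {F : Type u} {V : Type v} [Field F] [Finite F] [CharP F 2] [AddCommGroup V] [Module F V] [FiniteDimensional F V]
  {Q : QuadraticForm F V}

/-- `v^⊥` -/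
noncomputable def Pv (Q : QuadraticForm F V) (v : V) : Submodule F V := LinearMap.ker (fQ Q v)

theorem mem_Pv {v x : V} : x ∈ Pv Q v ↔ polar Q v x = 0 := Iff.rfl

theorem self_mem_Pv (v : V) : v ∈ Pv Q v := pol_self v

/-- `⟨v⟩` in `v^⊥` -/
noncomputable def Lv (Q : QuadraticForm F V) (v : V) : Submodule F (Pv Q v) := F ∙ (⟨v, self_mem_Pv v⟩ : Pv Q v)

theorem mem_Lv {v : V} {x : Pv Q v} : x ∈ Lv Q v ↔ ∃ c : F, x.1 = c • v := by
  rw [Lv, Submodule.mem_span_singleton]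
  constructor
  · rintro ⟨c, hc⟩
    exact ⟨c, (congrArg Subtype.val hc).symm⟩
  · rintro ⟨c, hc⟩
    exact ⟨c, Subtype.ext hc.symm⟩

/-- `v^⊥ / v` -/
abbrev V1 (Q : QuadraticForm F V) (v : V) : Type v := Pv Q v ⧸ Lv Q v

/-- the projection -/
noncomputable def p1 (Q : QuadraticForm F V) (v : V) : Pv Q v →ₗ[F] V1 Q v := (Lv Q v).mkQ

theorem p1_surj (v : V) : Function.Surjective (p1 Q v) := Submodule.mkQ_surjective _

theorem p1_zero {v : V} {x : Pv Q v} : p1 Q v x = 0 ↔ ∃ c : F, x.1 = c • v := by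
  rw [← mem_Lv]
  exact Submodule.Quotient.mk_eq_zero _

theorem p1_eq {v : V} {x y : Pv Q v} : p1 Q v x = p1 Q v y ↔ ∃ c : F, x.1 = y.1 + c • v := by
  rw [← sub_eq_zero, ← map_sub, p1_zero]
  refine exists_congr fun c => ?_
  rw [Submodule.coe_sub, sub_eq_iff_eq_add, add_comm]

theorem pol_v {v : V} (x : Pv Q v) : polar Q x.1 v = 0 := by
  rw [polar_comm]
  exact x.2

theorem pol_v' {v : V} (x : Pv Q v) : polar Q v x.1 = 0 := x.2

/-- the form -/
noncomputable def f1 (Q : QuadraticForm F V) (v : V) : LinearMap.BilinForm F (V1 Q v) :=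
  (Lv Q v).liftQ
    { toFun := fun x => (Lv Q v).liftQ ((fQ Q x.1).comp (Pv Q v).subtype) (by
        intro y hy
        obtain ⟨c, hc⟩ := mem_Lv.1 hy
        rw [LinearMap.mem_ker]
        change polar Q x.1 y.1 = 0
        rw [hc, polar_smul_right, pol_v, smul_zero])
      map_add' := fun x x' => by
        refine Submodule.linearMap_qext _ (LinearMap.ext fun y => ?_)
        change polar Q (x.1 + x'.1) y.1 = polar Q x.1 y.1 + polar Q x'.1 y.1
        rw [polar_add_left]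
      map_smul' := fun c x => by
        refine Submodule.linearMap_qext _ (LinearMap.ext fun y => ?_)
        change polar Q (c • x.1) y.1 = c • polar Q x.1 y.1
        rw [polar_smul_left] } (by
    intro x hx
    obtain ⟨c, hc⟩ := mem_Lv.1 hx
    rw [LinearMap.mem_ker]
    refine Submodule.linearMap_qext _ (LinearMap.ext fun y => ?_)
    change polar Q x.1 y.1 = 0
    rw [hc, polar_smul_left, pol_v', smul_zero])

theorem f1_p1 {v : V} (x y : Pv Q v) : f1 Q v (p1 Q v x) (p1 Q v y) = polar Q x.1 y.1 := rfl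

theorem f1_alt (v : V) (a : V1 Q v) : f1 Q v a a = 0 := by
  obtain ⟨x, rfl⟩ := p1_surj v a
  rw [f1_p1, pol_self]

theorem f1_nd (hnd : ∀ v : V, (∀ w, polar Q v w = 0) → v = 0) {v : V} (hv : v ≠ 0) (a : V1 Q v)
    (ha : ∀ b, f1 Q v a b = 0) : a = 0 := by
  obtain ⟨w0, hw0⟩ := exists_w0 hnd hv
  obtain ⟨x, rfl⟩ := p1_surj v a
  rw [p1_zero]
  refine ⟨polar Q x.1 w0, perp_perp hnd hw0 fun z hz => ?_⟩
  have h1 := ha (p1 Q v ⟨z, hz⟩)
  rw [f1_p1] at h1
  exact h1

/-- the basic form -/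
theorem exists_q1 {v w : V} (hvw : polar Q v w = 1) : ∃ q1 : V1 Q v → F, IsQ (f1 Q v) q1 ∧
    ∀ x : Pv Q v, q1 (p1 Q v x) = Q x.1 + Q v * polar Q w x.1 ^ 2 := by
  choose s hs using p1_surj (Q := Q) v
  have key : ∀ x : Pv Q v, Q (s (p1 Q v x)).1 + Q v * polar Q w (s (p1 Q v x)).1 ^ 2 =
      Q x.1 + Q v * polar Q w x.1 ^ 2 := by
    intro x
    obtain ⟨c, hc⟩ := p1_eq.1 (hs (p1 Q v x))
    have h2 := add_self' (Q v * c ^ 2)
    have h3 := add_self' (Q v * c * polar Q w x.1)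
    rw [hc, Q_add, QuadraticMap.map_smul, polar_smul_right, pol_v, smul_zero, add_zero, polar_add_right, polar_smul_right,
      polar_comm Q w v, hvw, smul_eq_mul, smul_eq_mul, mul_one]
    linear_combination h2 + h3
  refine ⟨fun a => Q (s a).1 + Q v * polar Q w (s a).1 ^ 2, ⟨?_, ?_⟩, key⟩
  · intro a b
    obtain ⟨x, rfl⟩ := p1_surj v a
    obtain ⟨y, rfl⟩ := p1_surj v b
    rw [← map_add]
    rw [key, key, key, f1_p1, Submodule.coe_add, Q_add, polar_add_right, sq_add]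
    ring
  · intro c a
    obtain ⟨x, rfl⟩ := p1_surj v a
    rw [← map_smul]
    rw [key, key, Submodule.coe_smul, QuadraticMap.map_smul, polar_smul_right, smul_eq_mul, smul_eq_mul]
    ring

/-- **the forms polarising to `f1`** -/
theorem exists_w (hnd : ∀ v : V, (∀ w, polar Q v w = 0) → v = 0) {v : V} (hv : Q v ≠ 0) {q' : V1 Q v → F}
    (hq' : IsQ (f1 Q v) q') : ∃ w, polar Q v w = 1 ∧ ∀ x : Pv Q v, q' (p1 Q v x) = Q x.1 + Q v * polar Q w x.1 ^ 2 := by
  have hv0 : v ≠ 0 := by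
    rintro rfl
    exact hv (QuadraticMap.map_zero Q)
  obtain ⟨w, hw⟩ := exists_w0 hnd hv0
  obtain ⟨q1, hq1, h1⟩ := exists_q1 hw
  obtain ⟨a, ha⟩ := exists_sh (f1_nd hnd hv0) hq1 hq'
  obtain ⟨t, rfl⟩ := p1_surj v a
  obtain ⟨s, hs⟩ := exists_sq (F := F) (Q v)⁻¹
  refine ⟨w + s • t.1, ?_, fun x => ?_⟩
  · rw [polar_add_right, polar_smul_right, hw, pol_v', smul_zero, add_zero]
  · rw [ha, sh_apply, h1, f1_p1, polar_add_left, polar_smul_left, sq_add, smul_eq_mul, mul_pow, hs]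
    field_simp
    ring

/-- the form attached to `w + t / √Q(v)` -/
theorem sh_w {v w : V} {q0 : V1 Q v → F} (hw : ∀ x : Pv Q v, q0 (p1 Q v x) = Q x.1 + Q v * polar Q w x.1 ^ 2)
    (hv : Q v ≠ 0) {s : F} (hs : s ^ 2 = (Q v)⁻¹) (t x : Pv Q v) :
    sh (f1 Q v) q0 (p1 Q v t) (p1 Q v x) = Q x.1 + Q v * polar Q (w + s • t.1) x.1 ^ 2 := by
  rw [sh_apply, hw, f1_p1, polar_add_left, polar_smul_left, sq_add, smul_eq_mul, mul_pow, hs]
  field_simp
  ring

/-- the trace -/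
theorem tr_w {v w : V} {q0 : V1 Q v → F} (hw : ∀ x : Pv Q v, q0 (p1 Q v x) = Q x.1 + Q v * polar Q w x.1 ^ 2)
    (hv : Q v ≠ 0) {s : F} (hs : s ^ 2 = (Q v)⁻¹) (t : Pv Q v) :
    Tr (Q v * Q (w + s • t.1)) = Tr (Q v * Q w) + Tr (q0 (p1 Q v t)) := by
  have hs0 : s ≠ 0 := by
    rintro rfl
    rw [zero_pow two_ne_zero] at hs
    exact inv_ne_zero hv hs.symm
  have h1 : Q v = (s⁻¹) ^ 2 := by rw [inv_pow, hs, inv_inv]
  have h2 : Q v * Q (w + s • t.1) = Q v * Q w + (Q t.1 + s⁻¹ * polar Q w t.1) := by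
    rw [Q_add, QuadraticMap.map_smul, polar_smul_right, smul_eq_mul, smul_eq_mul, h1]
    field_simp
    ring
  rw [h2, map_add, hw, map_add, map_add]
  congr 2
  have h3 : Q v * polar Q w t.1 ^ 2 = (s⁻¹ * polar Q w t.1) ^ 2 := by rw [mul_pow, ← h1]
  rw [h3, T_sq]

theorem isQ_Q (Q : QuadraticForm F V) : IsQ (fQ Q) Q where
  add x y := Q_add x y
  smul a x := by rw [QuadraticMap.map_smul, smul_eq_mul, pow_two]

/-- the preimage of a subspace -/
noncomputable def pre1 {v : V} (W : Submodule F (V1 Q v)) : Submodule F V := (W.comap (p1 Q v)).map (Pv Q v).subtype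

theorem mem_pre1 {v : V} {W : Submodule F (V1 Q v)} {x : V} : x ∈ pre1 W ↔ ∃ hx : x ∈ Pv Q v, p1 Q v ⟨x, hx⟩ ∈ W := by
  constructor
  · rintro ⟨y, hy, rfl⟩
    exact ⟨y.2, hy⟩
  · rintro ⟨hx, hy⟩
    exact ⟨⟨x, hx⟩, hy, rfl⟩

/-- **the form vanishing on a maximal totally isotropic subspace** -/
theorem tr_w0 (hnd : ∀ v : V, (∀ w, polar Q v w = 0) → v = 0) {m : ℕ} (hdim : finrank F V = 2 * m)
    (hplus : ∃ W : Submodule F V, (∀ w ∈ W, Q w = 0) ∧ finrank F W = m) {v w0 : V} {W : Submodule F (V1 Q v)}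
    (hti : ∀ a ∈ W, ∀ b ∈ W, f1 Q v a b = 0) (hperp : ∀ a, (∀ b ∈ W, f1 Q v a b = 0) → a ∈ W)
    {q0 : V1 Q v → F} (h0 : ∀ a ∈ W, q0 a = 0) (hw : ∀ x : Pv Q v, q0 (p1 Q v x) = Q x.1 + Q v * polar Q w0 x.1 ^ 2) :
    Tr (Q v * Q w0) = 0 := by
  by_contra hcon
  have hT := two_eq hcon
  obtain ⟨c, hc⟩ := exists_sq (F := F) (Q v)
  have hq := isQ_Q Q
  have hA : ∀ x, fQ Q x x = 0 := fun x => pol_self x
  have hq0' := hq.sh (c • w0)
  have hval : ∀ x, sh (fQ Q) Q (c • w0) x = Q x + Q v * polar Q w0 x ^ 2 := by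
    intro x
    rw [sh_apply, fQ_apply, polar_smul_left, smul_eq_mul, mul_pow, hc]
  obtain ⟨U, hU0, hU⟩ := hplus
  have htiL : ∀ x ∈ pre1 W, ∀ y ∈ pre1 W, fQ Q x y = 0 := by
    intro x hx y hy
    obtain ⟨hx1, hx2⟩ := mem_pre1.1 hx
    obtain ⟨hy1, hy2⟩ := mem_pre1.1 hy
    exact hti _ hx2 _ hy2
  have hperpL : ∀ x, (∀ y ∈ pre1 W, fQ Q x y = 0) → x ∈ pre1 W := by
    intro x hx
    have hvW : v ∈ pre1 W := by
      rw [mem_pre1]
      refine ⟨self_mem_Pv v, ?_⟩
      rw [p1_zero.2 ⟨1, (one_smul F v).symm⟩]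
      exact W.zero_mem
    have hx1 : x ∈ Pv Q v := by
      rw [mem_Pv, polar_comm]
      exact hx v hvW
    rw [mem_pre1]
    refine ⟨hx1, hperp _ fun b hb => ?_⟩
    obtain ⟨y, rfl⟩ := p1_surj v b
    exact hx y.1 (mem_pre1.2 ⟨y.2, hb⟩)
  have hfr := finrank_lagr hA hnd htiL hperpL
  refine minus_no_ts (f := fQ Q) hq0' hperpL (fun x hx => ?_) (m := m) (by omega) (v := c • w0) ?_ hU (fun u hu => ?_)
  · obtain ⟨hx1, hx2⟩ := mem_pre1.1 hx
    rw [hval, ← hw ⟨x, hx1⟩]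
    exact h0 _ hx2
  · rw [hval, QuadraticMap.map_smul, polar_smul_right, pol_self, smul_zero, zero_pow two_ne_zero, mul_zero, add_zero,
      smul_eq_mul, ← pow_two, hc]
    exact hT
  · rw [sh_sh, vadd_self F, sh_zero]
    exact hU0 u hu

/-- the dimension -/
theorem finrank_V1 (hnd : ∀ v : V, (∀ w, polar Q v w = 0) → v = 0) {v : V} (hv : v ≠ 0) {m : ℕ}
    (hdim : finrank F V = 2 * m) (hm : 1 ≤ m) : finrank F (V1 Q v) = 2 * (m - 1) := by
  obtain ⟨w0, hw0⟩ := exists_w0 hnd hv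
  have h1 := LinearMap.finrank_range_add_finrank_ker (fQ Q v)
  have h2 : LinearMap.range (fQ Q v) = ⊤ := by
    rw [LinearMap.range_eq_top]
    intro a
    exact ⟨a • w0, by rw [map_smul, fQ_apply, hw0, smul_eq_mul, mul_one]⟩
  rw [h2, finrank_top, finrank_self, hdim] at h1
  have h3 : finrank F (Lv Q v) = 1 := finrank_span_singleton (fun h => hv (congrArg Subtype.val h))
  have h4 : finrank F (V1 Q v) + finrank F (Lv Q v) = finrank F (Pv Q v) :=
    Submodule.finrank_quotient_add_finrank (Lv Q v)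
  have h5 : 1 + finrank F (Pv Q v) = 2 * m := h1
  rw [h3] at h4
  omega

/-! ### the action -/

variable {p f m : ℕ} {K : Subgroup (V ≃ₗ[F] V)}

section act

variable (hK : ∀ k ∈ K, ∀ x, Q (k x) = Q x) {v : V}

include hK in
theorem mem_res (k : stb K v) {x : V} (hx : x ∈ Pv Q v) : k.1 x ∈ Pv Q v := by
  rw [mem_Pv] at hx ⊢
  have h1 : polar Q (k.1 v) (k.1 x) = polar Q v x := polar_map (hK k.1 k.2.1) v x
  rw [k.2.2] at h1
  rw [h1, hx]

/-- the restriction to `v^⊥` -/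
noncomputable def res (k : stb K v) : Pv Q v →ₗ[F] Pv Q v := (k.1 : V →ₗ[F] V).restrict fun _ hx => mem_res hK k hx

theorem res_coe (k : stb K v) (x : Pv Q v) : (res hK k x : V) = k.1 x.1 := rfl

/-- the action on the quotient -/
noncomputable def rho1 (k : stb K v) : V1 Q v →ₗ[F] V1 Q v := (Lv Q v).mapQ (Lv Q v) (res hK k) (by
  intro x hx
  obtain ⟨c, hc⟩ := mem_Lv.1 hx
  rw [Submodule.mem_comap, mem_Lv]
  refine ⟨c, ?_⟩
  rw [res_coe, hc, map_smul, k.2.2])

theorem rho1_p1 (k : stb K v) (x : Pv Q v) : rho1 hK k (p1 Q v x) = p1 Q v (res hK k x) := rfl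

/-- **the action on the quotient** -/
noncomputable def rho : stb K v →* (V1 Q v ≃ₗ[F] V1 Q v) where
  toFun k := LinearEquiv.ofLinearMap (rho1 hK k) (rho1 hK k⁻¹)
    (by
      refine LinearMap.ext fun a => ?_
      obtain ⟨x, rfl⟩ := p1_surj v a
      change p1 Q v (res hK k (res hK k⁻¹ x)) = p1 Q v x
      congr 1
      apply Subtype.ext
      change (k.1 * k.1⁻¹) x.1 = x.1
      rw [mul_inv_cancel]
      rfl)
    (by
      refine LinearMap.ext fun a => ?_
      obtain ⟨x, rfl⟩ := p1_surj v a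
      change p1 Q v (res hK k⁻¹ (res hK k x)) = p1 Q v x
      congr 1
      apply Subtype.ext
      change (k.1⁻¹ * k.1) x.1 = x.1
      rw [inv_mul_cancel]
      rfl)
  map_one' := by
    refine LinearEquiv.ext fun a => ?_
    obtain ⟨x, rfl⟩ := p1_surj v a
    rfl
  map_mul' k l := by
    refine LinearEquiv.ext fun a => ?_
    obtain ⟨x, rfl⟩ := p1_surj v a
    rfl

theorem rho_p1 (k : stb K v) (x : Pv Q v) : rho hK k (p1 Q v x) = p1 Q v (res hK k x) := rfl

theorem rho_iso (k : stb K v) : rho hK k ∈ Iso (F := F) fun x y => f1 Q v x y := by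
  intro a b
  obtain ⟨x, rfl⟩ := p1_surj v a
  obtain ⟨y, rfl⟩ := p1_surj v b
  change f1 Q v (rho hK k (p1 Q v x)) (rho hK k (p1 Q v y)) = f1 Q v (p1 Q v x) (p1 Q v y)
  rw [rho_p1, rho_p1, f1_p1, f1_p1, res_coe, res_coe]
  exact polar_map (hK k.1 k.2.1) x.1 y.1

end act

theorem rho_inj (h : Cfsg.Agent.H386.Rg.D2 Q p f m K) (hm : Odd m) {v : V} (hv : Q v ≠ 0) :
    Function.Injective (rho h.iso : stb K v →* _) := by
  rw [injective_iff_map_eq_one]
  intro k hk
  apply Subtype.ext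
  refine faithful h hm hv k.2.1 k.2.2 fun x hx => ?_
  have h1 : rho h.iso k (p1 Q v ⟨x, hx⟩) = p1 Q v ⟨x, hx⟩ := by rw [hk]; rfl
  rw [rho_p1, p1_eq] at h1
  exact h1

/-- elements of odd prime order have no fixed vectors -/
theorem rho_fpf (h : Cfsg.Agent.H386.Rg.D2 Q p f m K) (hp2 : p = 2) {v : V} (hv : Q v ≠ 0) (k : stb K v)
    (ho : (orderOf k).Prime) (ho2 : orderOf k ≠ 2) {a : V1 Q v} (ha : rho h.iso k a = a) : a = 0 := by
  obtain ⟨x, rfl⟩ := p1_surj v a
  rw [rho_p1, p1_eq] at ha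
  obtain ⟨c, hc⟩ := ha
  rw [res_coe] at hc
  have hko : orderOf k.1 = orderOf k := Subgroup.orderOf_coe k
  obtain ⟨e, g, he, hg, heg, hvs, hP⟩ := h.fixplane' hv k.2 (by rw [hko]; exact ho) (by rw [hko, hp2]; exact ho2)
    (by rw [hko]; exact ho2)
  -- `c = 0`
  have hpow : ∀ i : ℕ, (k.1 ^ i) x.1 = x.1 + ((i : F) * c) • v := by
    intro i
    induction i with
    | zero =>
      rw [pow_zero, Nat.cast_zero, zero_mul, zero_smul, add_zero]
      rfl
    | succ i ih =>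
      rw [pow_succ']
      change k.1 ((k.1 ^ i) x.1) = _
      rw [ih, map_add, map_smul, k.2.2, hc, Nat.cast_succ, add_mul, one_mul, add_smul]
      abel
  have hodd : Odd (orderOf k) := ho.odd_of_ne_two ho2
  have h1 := hpow (orderOf k)
  rw [← hko, pow_orderOf_eq_one, hko, nat_odd_cast hodd, one_mul] at h1
  have h2 : c • v = 0 := by
    have h3 : x.1 = x.1 + c • v := h1
    exact (left_eq_add.1 h3)
  have h3 : k.1 x.1 = x.1 := by rw [hc, h2, add_zero]
  have h4 := (hP x.1).1 h3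
  obtain ⟨α, β, hv'⟩ := Submodule.mem_span_pair.1 hvs
  obtain ⟨γ, δ, hx'⟩ := Submodule.mem_span_pair.1 h4
  have h5 : polar Q (α • e + β • g) (γ • e + δ • g) = 0 := by
    rw [hv', hx']
    exact x.2
  have hge : polar Q g e = 1 := by rw [polar_comm]; exact heg
  have h6 : α * δ + β * γ = 0 := by
    rw [polar_add_left, polar_add_right, polar_add_right, polar_smul_left, polar_smul_left,
      polar_smul_left, polar_smul_left, polar_smul_right, polar_smul_right, polar_smul_right, polar_smul_right,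
      pol_self, pol_self, heg, hge] at h5
    simp only [smul_eq_mul] at h5
    linear_combination h5
  have hQv : Q v = α * β := by
    rw [← hv', Q_add, QuadraticMap.map_smul, QuadraticMap.map_smul, he, hg, polar_smul_left, polar_smul_right, heg]
    simp only [smul_eq_mul]
    ring
  have hα : α ≠ 0 := fun h0 => hv (by rw [hQv, h0, zero_mul])
  rw [p1_zero]
  refine ⟨γ / α, ?_⟩
  rw [← hx', ← hv', smul_add, smul_smul, smul_smul, div_mul_cancel₀ _ hα]
  congr 2
  field_simp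
  have h7 := add_self' (β * γ)
  linear_combination h6 - h7

end Cfsg.Agent.H383.D2
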