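import Cfsg.Agent.H383.D2.Free
import Cfsg.Agent.H72.D2.Vs
import Cfsg.Agent.H50.D2.Stb
import Cfsg.Agent.H100.D2.EvenEven
import Cfsg.Agent.H997.Rg.Sy

/-!
# S3691, F-D+2 (d): instantiation of the abstract frame `Sy` (helper383)

* `exists_sy` : `q = 2 ^ f ≥ 8`, `m ≥ 7` odd: a frame `D2` gives a nonsingular vector `v` and a frame `Sy` on `v^⊥ / v`
-/

set_option autoImplicit false
set_option linter.unusedSectionVars false

namespace Cfsg.Agent.H383.D2.SyInst

open Module QuadraticMap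
open Cfsg.Agent.LieClassical.OrthCore Cfsg.Agent.LieClassical.OrthTrans
open Cfsg.Agent.H383.Rg Cfsg.Agent.H386.Rg Cfsg.Agent.H383.D2
open Cfsg.Agent.H100.D2 (repW repW_mk)

universe u v

section

variable {F : Type u} {V : Type v} [Field F] [Finite F] [CharP F 2] [AddCommGroup V] [Module F V] [FiniteDimensional F V]
  {Q : QuadraticForm F V}

local notation "PP" => H100.D2.Pv
local notation "NN" => H100.D2.Nv

theorem mem_NN {v : V} {x : PP Q v} : x ∈ NN Q v ↔ ∃ c : F, x.1 = c • v := by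
  rw [H100.D2.mem_Nv, Submodule.mem_span_singleton]
  exact exists_congr fun c => eq_comm

theorem mk_eq {v : V} {x y : PP Q v} : (Submodule.Quotient.mk x : PP Q v ⧸ NN Q v) = Submodule.Quotient.mk y ↔
    ∃ c : F, x.1 = y.1 + c • v := by
  rw [Submodule.Quotient.eq, mem_NN]
  refine exists_congr fun c => ?_
  rw [Submodule.coe_sub, sub_eq_iff_eq_add, add_comm]

theorem pol_r {v : V} (x : PP Q v) : polar Q x.1 v = 0 := by
  rw [polar_comm]
  exact x.2

theorem pol_l {v : V} (x : PP Q v) : polar Q v x.1 = 0 := x.2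

/-- the form -/
noncomputable def BW (Q : QuadraticForm F V) (v : V) : LinearMap.BilinForm F (PP Q v ⧸ NN Q v) :=
  (NN Q v).liftQ
    { toFun := fun x => (NN Q v).liftQ ((fQ Q x.1).comp (PP Q v).subtype) (by
        intro y hy
        obtain ⟨c, hc⟩ := mem_NN.1 hy
        rw [LinearMap.mem_ker]
        change polar Q x.1 y.1 = 0
        rw [hc, polar_smul_right, pol_r, smul_zero])
      map_add' := fun x x' => by
        refine Submodule.linearMap_qext _ (LinearMap.ext fun y => ?_)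
        change polar Q (x.1 + x'.1) y.1 = polar Q x.1 y.1 + polar Q x'.1 y.1
        rw [polar_add_left]
      map_smul' := fun c x => by
        refine Submodule.linearMap_qext _ (LinearMap.ext fun y => ?_)
        change polar Q (c • x.1) y.1 = c • polar Q x.1 y.1
        rw [polar_smul_left] } (by
    intro x hx
    obtain ⟨c, hc⟩ := mem_NN.1 hx
    rw [LinearMap.mem_ker]
    refine Submodule.linearMap_qext _ (LinearMap.ext fun y => ?_)
    change polar Q x.1 y.1 = 0
    rw [hc, polar_smul_left, pol_l, smul_zero])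

theorem BW_mk {v : V} (x y : PP Q v) : BW Q v (Submodule.Quotient.mk x) (Submodule.Quotient.mk y) = polar Q x.1 y.1 := rfl

theorem finrank_W (hnd : ∀ v : V, (∀ w, polar Q v w = 0) → v = 0) {v : V} (hv : v ≠ 0) {m : ℕ}
    (hdim : finrank F V = 2 * m) (hm : 1 ≤ m) : finrank F (PP Q v ⧸ NN Q v) = 2 * (m - 1) := by
  obtain ⟨w0, hw0⟩ := exists_w0 hnd hv
  have h1 := LinearMap.finrank_range_add_finrank_ker (fQ Q v)
  have h2 : LinearMap.range (fQ Q v) = ⊤ := by
    rw [LinearMap.range_eq_top]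
    intro a
    exact ⟨a • w0, by rw [map_smul, fQ_apply, hw0, smul_eq_mul, mul_one]⟩
  rw [h2, finrank_top, finrank_self, hdim] at h1
  have hle : Submodule.span F {v} ≤ PP Q v := by
    rw [Submodule.span_singleton_le_iff_mem]
    exact pol_self v
  have h3 : finrank F (NN Q v) = 1 := by
    rw [← finrank_span_singleton (K := F) hv]
    exact (Submodule.comapSubtypeEquivOfLe hle).finrank_eq
  have h4 : finrank F (PP Q v ⧸ NN Q v) + finrank F (NN Q v) = finrank F (PP Q v) :=
    Submodule.finrank_quotient_add_finrank (NN Q v)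
  have h5 : 1 + finrank F (PP Q v) = 2 * m := h1
  rw [h3] at h4
  omega

variable {p f m : ℕ} {K : Subgroup (V ≃ₗ[F] V)} {v : V}

theorem rep_sub (iso : ∀ k ∈ K, ∀ w, Q (k w) = Q w) (k : ↥(stb K v)) (x : PP Q v) :
    ∃ x' : PP Q v, x'.1 = k.1 x.1 - x.1 ∧
      (repW iso v k - 1 : Module.End F (PP Q v ⧸ NN Q v)) (Submodule.Quotient.mk x) = Submodule.Quotient.mk x' := by
  refine ⟨⟨k.1 x.1, H100.D2.stb_map iso k.2 x x.2⟩ - x, rfl, ?_⟩
  rw [LinearMap.sub_apply, repW_mk, Module.End.one_apply]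
  rfl

/-- `Q (T z) = (z, T z)` -/
theorem Q_T {t : V ≃ₗ[F] V} (ht : ∀ x, Q (t x) = Q x) (z : V) : Q (t z - z) = polar Q z (t z - z) := by
  have h1 : Q (z + (t z - z)) = Q z := by rw [add_sub_cancel, ht]
  rw [Q_add] at h1
  have h2 := add_self' (polar Q z (t z - z))
  linear_combination h1 - h2

/-- `m` odd: `(z, t z) = 0` for the involutions -/
theorem inv_pol (h : Cfsg.Agent.H386.Rg.D2 Q p f m K) (hm : Odd m) {t : V ≃ₗ[F] V} (ht : t ∈ K) (htt : t * t = 1) (z : V) :
    polar Q z (t z) = 0 := by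
  by_contra h1
  exact no_ctype h hm ht htt h1

theorem inv_sing (h : Cfsg.Agent.H386.Rg.D2 Q p f m K) (hm : Odd m) {t : V ≃ₗ[F] V} (ht : t ∈ K) (htt : t * t = 1) (z : V) :
    Q (t z - z) = 0 := by
  rw [Q_T (h.iso t ht), polar_sub_right, inv_pol h hm ht htt, pol_self, sub_zero]

/-- elements of order four -/
theorem four_pol (h : Cfsg.Agent.H386.Rg.D2 Q p f m K) (hm : Odd m) {t : V ≃ₗ[F] V} (ht : t ∈ K) (h4 : (t * t) * (t * t) = 1)
    {T : V → V} (hT : ∀ x, T x = t x - x) (x : V) : polar Q x (T (T (T x))) = 0 := by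
  have hsub : ∀ a b : V, a - b = a + b := fun a b => vsub F a b
  have hTT : ∀ z, T (T z) = (t * t) z - z := by
    intro z
    rw [hT, hT, map_sub]
    change t (t z) - t z - (t z - z) = t (t z) - z
    rw [hsub, hsub, hsub, hsub, add_assoc, ← add_assoc (t z) (t z) z, vadd_self F, zero_add]
  have htK : t * t ∈ K := K.mul_mem ht ht
  have h1 : ∀ w, polar Q w (T (T w)) = 0 := by
    intro w
    rw [hTT, polar_sub_right, inv_pol h hm htK h4, pol_self, sub_zero]
  have h2 : polar Q (T x) (T (T x)) = 0 := by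
    have e1 : Q (T (T x)) = polar Q (T x) (T (T x)) := by
      rw [hT (T x)]
      exact Q_T (h.iso t ht) (T x)
    rw [← e1, hTT]
    exact inv_sing h hm htK h4 x
  have h3 : ∀ a b, polar Q a (T b) + polar Q (T a) b + polar Q (T a) (T b) = 0 := by
    intro a b
    have e1 := pol_map h ht a b
    have e2 : t a = a + T a := by rw [hT]; abel
    have e3 : t b = b + T b := by rw [hT]; abel
    rw [e2, e3, polar_add_left, polar_add_right, polar_add_right] at e1
    linear_combination e1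
  have h5 := h3 x (T (T x))
  rw [h2, h1 (T x), add_zero, add_zero] at h5
  exact h5

theorem finrank_fix (h : Cfsg.Agent.H386.Rg.D2 Q p f m K) (hm : Odd m) {t : V ≃ₗ[F] V} (ht : t ∈ K) (htt : t * t = 1)
    (ht1 : t ≠ 1) : finrank F (fixS t) = m + 1 := by
  have h1 := h.fix_le ht ht1
  have h2 := h.fix_even ht
  have h3 := h.fix_add t
  have h4 : LinearMap.range ((t : V →ₗ[F] V) - LinearMap.id) ≤ fixS t := by
    rintro _ ⟨x, rfl⟩
    rw [mem_fixS]
    change t (t x - x) = t x - x
    have h5 : t (t x) = x := by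
      change (t * t) x = x
      rw [htt]
      rfl
    rw [map_sub, h5, vsub F, vsub F, add_comm]
  have h5 := Submodule.finrank_mono h4
  obtain ⟨j, hj⟩ := h2
  obtain ⟨i, hi⟩ := hm
  omega

/-- the fixed space on `v^⊥ / v` -/
theorem finrank_fixW (h : Cfsg.Agent.H386.Rg.D2 Q p f m K) (hm : Odd m) (hv : Q v ≠ 0) (k : ↥(stb K v)) (hkk : k * k = 1)
    (hk1 : k ≠ 1) :
    finrank F (LinearMap.ker (repW h.iso v k - 1 : Module.End F (PP Q v ⧸ NN Q v))) = m - 1 := by
  have hv0 : v ≠ 0 := by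
    rintro rfl
    exact hv (QuadraticMap.map_zero Q)
  have hkk' : k.1 * k.1 = 1 := congrArg Subtype.val hkk
  have hk1' : k.1 ≠ 1 := fun h1 => hk1 (Subtype.ext h1)
  have hC := finrank_fix h hm k.2.1 hkk' hk1'
  have hvC : v ∈ fixS k.1 := mem_fixS.2 k.2.2
  -- `C` is not in `v^⊥`
  have hex : ∃ c ∈ fixS k.1, polar Q v c = 1 := by
    by_contra hcon
    push Not at hcon
    -- then `v` is in the perp of `C`, the range
    have hnd : (fQ Q).Nondegenerate := by
      refine ⟨fun x hx => h.nd x fun y => hx y, fun x hx => h.nd x fun y => ?_⟩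
      rw [polar_comm]
      exact hx y
    have h0 : ∀ c ∈ fixS k.1, polar Q v c = 0 := by
      intro c hc
      by_contra h1
      refine hcon ((polar Q v c)⁻¹ • c) (Submodule.smul_mem _ _ hc) ?_
      rw [polar_smul_right, smul_eq_mul, inv_mul_cancel₀ h1]
    have h1 : LinearMap.range ((k.1 : V →ₗ[F] V) - LinearMap.id) ≤ (fQ Q).orthogonal (fixS k.1) := by
      rintro _ ⟨x, rfl⟩ c hc
      change polar Q c (k.1 x - x) = 0
      have h2 := pol_map h k.2.1 c x
      rw [mem_fixS.1 hc] at h2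
      rw [polar_sub_right, h2, sub_self]
    have h2 := LinearMap.BilinForm.finrank_orthogonal hnd (fixS k.1)
    have h3 := h.fix_add k.1
    have h4 : LinearMap.range ((k.1 : V →ₗ[F] V) - LinearMap.id) = (fQ Q).orthogonal (fixS k.1) := by
      apply Submodule.eq_of_le_of_finrank_eq h1
      rw [h2, h.dim]
      omega
    have h5 : v ∈ (fQ Q).orthogonal (fixS k.1) := by
      intro c hc
      change polar Q c v = 0
      rw [polar_comm]
      exact h0 c hc
    rw [← h4] at h5
    obtain ⟨x, hx⟩ := h5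
    apply hv
    rw [← hx]
    exact inv_sing h hm k.2.1 hkk' x
  obtain ⟨c0, hc0, hvc0⟩ := hex
  -- `C ∩ v^⊥`
  let φ : fixS k.1 →ₗ[F] F := (fQ Q v).comp (fixS k.1).subtype
  have hφr : LinearMap.range φ = ⊤ := by
    rw [LinearMap.range_eq_top]
    intro a
    refine ⟨a • ⟨c0, hc0⟩, ?_⟩
    rw [map_smul]
    change a • polar Q v c0 = a
    rw [hvc0, smul_eq_mul, mul_one]
  have h1 := LinearMap.finrank_range_add_finrank_ker φ
  rw [hφr, finrank_top, finrank_self, hC] at h1
  -- the map onto the fixed space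
  have hmem : ∀ x : LinearMap.ker φ, x.1.1 ∈ PP Q v := fun x => x.2
  have hker : ∀ x : LinearMap.ker φ, (Submodule.Quotient.mk (⟨x.1.1, hmem x⟩ : PP Q v) : PP Q v ⧸ NN Q v) ∈
      LinearMap.ker (repW h.iso v k - 1 : Module.End F (PP Q v ⧸ NN Q v)) := by
    intro x
    obtain ⟨x', hx', e⟩ := rep_sub h.iso k ⟨x.1.1, hmem x⟩
    rw [LinearMap.mem_ker, e]
    have h2 : x' = 0 := Subtype.ext (by rw [hx', mem_fixS.1 x.1.2, sub_self]; rfl)
    rw [h2]
    rfl
  let g : LinearMap.ker φ →ₗ[F] LinearMap.ker (repW h.iso v k - 1 : Module.End F (PP Q v ⧸ NN Q v)) :=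
    { toFun := fun x => ⟨Submodule.Quotient.mk (⟨x.1.1, hmem x⟩ : PP Q v), hker x⟩
      map_add' := fun _ _ => rfl
      map_smul' := fun _ _ => rfl }
  have hgr : LinearMap.range g = ⊤ := by
    rw [LinearMap.range_eq_top]
    rintro ⟨a, ha⟩
    obtain ⟨x, rfl⟩ := Submodule.Quotient.mk_surjective _ a
    obtain ⟨x', hx', e⟩ := rep_sub h.iso k x
    rw [LinearMap.mem_ker, e, Submodule.Quotient.mk_eq_zero, mem_NN] at ha
    obtain ⟨c, hc⟩ := ha
    rw [hx', sub_eq_iff_eq_add'] at hc
    -- `k x = x + c v`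
    have h2 := h.iso k.1 k.2.1 x.1
    rw [hc, Q_add, QuadraticMap.map_smul, polar_smul_right, pol_r, smul_zero, add_zero, smul_eq_mul] at h2
    have h3 : c * c * Q v = 0 := by linear_combination h2
    have h4 : c = 0 := by
      rcases mul_eq_zero.1 h3 with h5 | h5
      · exact mul_self_eq_zero.1 h5
      · exact absurd h5 hv
    rw [h4, zero_smul, add_zero] at hc
    exact ⟨⟨⟨x.1, mem_fixS.2 hc⟩, x.2⟩, rfl⟩
  have h2 := LinearMap.finrank_range_add_finrank_ker g
  have hvk : (⟨v, hvC⟩ : fixS k.1) ∈ LinearMap.ker φ := pol_self v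
  have hgk : LinearMap.ker g = F ∙ (⟨⟨v, hvC⟩, hvk⟩ : LinearMap.ker φ) := by
    ext x
    rw [LinearMap.mem_ker, Submodule.mem_span_singleton]
    constructor
    · intro hx
      have h3 : (Submodule.Quotient.mk (⟨x.1.1, hmem x⟩ : PP Q v) : PP Q v ⧸ NN Q v) = 0 := congrArg Subtype.val hx
      rw [Submodule.Quotient.mk_eq_zero, mem_NN] at h3
      obtain ⟨c, hc⟩ := h3
      exact ⟨c, Subtype.ext (Subtype.ext hc.symm)⟩
    · rintro ⟨c, rfl⟩
      apply Subtype.ext
      change (Submodule.Quotient.mk (⟨c • v, _⟩ : PP Q v) : PP Q v ⧸ NN Q v) = 0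
      rw [Submodule.Quotient.mk_eq_zero, mem_NN]
      exact ⟨c, rfl⟩
  have h3 : finrank F (LinearMap.ker g) = 1 := by
    rw [hgk]
    exact finrank_span_singleton (fun h0 => hv0 (congrArg (fun z : LinearMap.ker φ => z.1.1) h0))
  rw [hgr, finrank_top, h3] at h2
  omega

end

end Cfsg.Agent.H383.D2.SyInst

namespace Cfsg.Agent.H997.Rg

open Module Subgroup QuadraticMap Cfsg.Agent.H383.Rg Cfsg.Agent.H386.Rg Cfsg.Agent.H383.D2 Cfsg.Agent.H383.D2.SyInst
open Cfsg.Agent.H100.D2 (repW repW_mk repW_fpf)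

universe u v w

/-- **the frame `Sy` in F-D+2 (d)** -/
theorem exists_sy {F : Type u} {V : Type v} [Field F] [Finite F] [AddCommGroup V] [Module F V] [FiniteDimensional F V]
    {Q : QuadraticForm F V} {p f m : ℕ} {K : Subgroup (V ≃ₗ[F] V)} (h : H386.Rg.D2 Q p f m K) (hp2 : p = 2) (hq : 8 ≤ p ^ f)
    (hm : Odd m) (hm7 : 7 ≤ m) :
    ∃ (r : ℕ) (v : V) (_ : Q v ≠ 0) (y : ↥(H386.Rg.stb K v)) (_ : Finite ↥(H386.Rg.stb K v))
      (B : LinearMap.BilinForm F (H100.D2.Pv Q v ⧸ H100.D2.Nv Q v)), Sy f (m - 1) r B (H100.D2.repW h.iso v) y := by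
  subst hp2
  have hchar : CharP F 2 := h.charP
  have h2 : (2 : F) = 0 := CharTwo.two_eq_zero
  have hf3 : 3 ≤ f := by
    by_contra hcon
    have : 2 ^ f ≤ 2 ^ 2 := Nat.pow_le_pow_right two_pos (by omega)
    omega
  have hk18 : 18 ≤ f * (m - 1) := by
    calc 18 = 3 * 6 := rfl
      _ ≤ f * (m - 1) := Nat.mul_le_mul hf3 (by omega)
  obtain ⟨r, hr, hord⟩ := Cfsg.Agent.Lib.Zsigmondy.exists_prime_orderOf (a := 2) (n := f * (m - 1)) le_rfl
    (by omega) (by omega) (by omega)
  have hfV : Finite V := Module.finite_of_finite F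
  have hVV : Finite (V ≃ₗ[F] V) :=
    Finite.of_injective (fun f : V ≃ₗ[F] V => (f : V → V)) DFunLike.coe_injective
  have := Fact.mk hr
  obtain ⟨⟨y, hyK⟩, hy⟩ := exists_prime_orderOf_dvd_card' (G := K) r (h.rdvd r hr (Or.inr hord))
  rw [Subgroup.orderOf_mk] at hy
  obtain ⟨e, g, hee, hgg, heg, hfix⟩ := h.fixplane hr hord hyK hy
  obtain ⟨v, hv'⟩ : ∃ v, v = e + g := ⟨_, rfl⟩
  have hv : Q v ≠ 0 := by
    have h6 : Q (e + g) = Q e + Q g + polar Q e g := by unfold polar; abel
    rw [hv', h6, hee, hgg, heg, zero_add, zero_add]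
    exact one_ne_zero
  have hyv : y v = v := by
    rw [hfix, hv']
    exact Submodule.add_mem _ (Submodule.subset_span (by simp)) (Submodule.subset_span (by simp))
  have hv0 : v ≠ 0 := by
    intro h0
    exact hv (by rw [h0, QuadraticMap.map_zero])
  have hyS : y ∈ stb K v := ⟨hyK, hyv⟩
  refine ⟨r, v, hv, ⟨y, hyS⟩, inferInstance, BW Q v, ?_⟩
  have hpow : ∀ (k : ↥(stb K v)) (x : H100.D2.Pv Q v), ∃ x' : H100.D2.Pv Q v, x'.1 = k.1 x.1 - x.1 ∧
      (repW h.iso v k - 1 : Module.End F _) (Submodule.Quotient.mk x) = Submodule.Quotient.mk x' := rep_sub h.iso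
  exact
    { hF := h.hF
      f3 := hf3
      n6 := by omega
      ne := by
        obtain ⟨j, hj⟩ := hm
        exact ⟨j, by omega⟩
      dim := finrank_W h.nd hv0 h.dim (by omega)
      alt := by
        intro a
        obtain ⟨x, rfl⟩ := Submodule.Quotient.mk_surjective _ a
        rw [BW_mk, pol_self]
      nd := by
        intro a ha
        obtain ⟨w0, hw0⟩ := exists_w0 h.nd hv0
        obtain ⟨x, rfl⟩ := Submodule.Quotient.mk_surjective _ a
        rw [Submodule.Quotient.mk_eq_zero, mem_NN]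
        refine ⟨polar Q x.1 w0, perp_perp h.nd hw0 fun z hz => ?_⟩
        have h1 := ha (Submodule.Quotient.mk ⟨z, hz⟩)
        rw [BW_mk] at h1
        exact h1
      iso := by
        intro k a b
        obtain ⟨x, rfl⟩ := Submodule.Quotient.mk_surjective _ a
        obtain ⟨z, rfl⟩ := Submodule.Quotient.mk_surjective _ b
        rw [repW_mk, repW_mk, BW_mk, BW_mk]
        exact pol_map h k.2.1 x.1 z.1
      inj := by
        rw [injective_iff_map_eq_one]
        intro k hk
        apply Subtype.ext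
        refine faithful h hm hv k.2.1 k.2.2 fun x hx => ?_
        have h1 := LinearMap.congr_fun hk (Submodule.Quotient.mk (⟨x, hx⟩ : H100.D2.Pv Q v))
        rw [repW_mk, Module.End.one_apply, mk_eq] at h1
        exact h1
      fpf := repW_fpf h2 h.iso hv fun k hk hkp hk2 => h.fixplane' hv hk hkp hk2 hk2
      inv := fun t htt ht1 => finrank_fixW h hm hv t htt ht1
      typ := by
        intro t htt a
        obtain ⟨x, rfl⟩ := Submodule.Quotient.mk_surjective _ a
        rw [repW_mk, BW_mk]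
        exact inv_pol h hm t.2.1 (congrArg Subtype.val htt) x.1
      four := by
        intro t h4 a
        obtain ⟨x, rfl⟩ := Submodule.Quotient.mk_surjective _ a
        obtain ⟨x1, h1, e1⟩ := hpow t x
        obtain ⟨x2, h2, e2⟩ := hpow t x1
        obtain ⟨x3, h3, e3⟩ := hpow t x2
        rw [pow_succ, pow_two, Module.End.mul_apply, Module.End.mul_apply, e1, e2, e3, BW_mk, h3, h2, h1]
        exact four_pol h hm t.2.1 (congrArg Subtype.val h4) (T := fun x => t.1 x - x) (fun x => rfl) x.1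
      hr := hr
      ord := hord
      hy := by rw [Subgroup.orderOf_mk, hy]
      dvd := H50.D2.card_stb_dvd h hv
      ge := by
        have h1 := H50.D2.card_stb_ge h hv
        rw [if_pos rfl] at h1
        calc _ ≤ _ := h1
          _ = _ := by ring }

end Cfsg.Agent.H997.Rg
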